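import Cfsg.Agent.H770.CY.Defs
import Cfsg.Agent.H627.Gow.J3
import Cfsg.Agent.H921.K4.Uniq

/-!
# S4829, `p = 2`, the row `J₃` (helper829)

`J₃` has exactly one irreducible character of degree `1615` (helper627). So it is rational valued and fixed by all
automorphisms.
-/

set_option autoImplicit false

namespace Cfsg.Agent.H829.R2.J3

open Cfsg Cfsg.Agent.H770.CY

/-- the row for `p = 2` from the only irreducible character of some odd degree `> 1` -/
theorem row2_of_exists_unique {S : Type*} [Group S] [Finite S] {d : ℕ} (hd : Odd d) (hd1 : d ≠ 1)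
    (h : ∃ χ : IrrCharacter S, (χ : S → ℂ) 1 = (d : ℕ) ∧
      ∀ ψ : IrrCharacter S, (ψ : S → ℂ) 1 = (d : ℕ) → ψ = χ) : Row2 S := by
  obtain ⟨χ, h1, h2⟩ := h
  have hdeg : charDegree (χ : S → ℂ) = d := by
    have h3 := Cfsg.Agent.Blocks.Basic.irr_one_eq_charDegree χ.2
    rw [h1] at h3
    exact_mod_cast h3.symm
  have hu : H921.K4.Uniq (χ : S → ℂ) := by
    refine ⟨χ.2, ?_, ?_⟩
    · rw [hdeg]
      exact hd.not_two_dvd_nat
    · intro ψ hψ h3
      exact congrArg Subtype.val (h2 ⟨ψ, hψ⟩ (h3.trans h1))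
  intro B _
  refine ⟨χ, ?_, ?_, fun k hk _ g => hu.rat k hk g, fun b _ x => hu.inv b x⟩
  · intro h3
    have h4 : (χ : S → ℂ) 1 = 1 := congrFun h3 1
    rw [h1] at h4
    exact hd1 (by exact_mod_cast h4)
  · rw [hdeg]
    exact hd

/-- **the row `J₃`** -/
theorem row2_J3 {K : Type*} [Group K] [Finite K] (h : Spor.IsoJ3 K) : Row2 K :=
  row2_of_exists_unique (d := 1615) (by decide) (by decide) (H627.Gow.J3.exists_unique h)

theorem rowFor2_J3 : RowFor2 (fun X _ => Spor.IsoJ3 X) :=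
  fun _ _ _ _ _ h => row2_J3 h

end Cfsg.Agent.H829.R2.J3
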