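import Cfsg.Agent.H226.R2.Base
import Cfsg.Agent.H770.CY.Defs
import Cfsg.Agent.H776.CY.Congr
import Cfsg.Agent.H921.K4.Uniq

/-!
# S4829, `p = 2`: the row from an invariant rational character, or from a character determined by its odd degree
(helper829; `row2_of_inv` after helper125)
-/

set_option autoImplicit false

namespace Cfsg.Agent.H829.R2

open Cfsg Cfsg.Agent.H770.CY Cfsg.Agent.H226.R2 Cfsg.Agent.Characters.Core

universe u

/-- the row for `p = 2` from an irreducible character determined by its degree `> 1`, odd -/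
theorem row2_of_uniq {S : Type u} [Group S] [Finite S] {χ : S → ℂ} (hu : H921.K4.Uniq χ)
    (hd : charDegree χ ≠ 1) : Row2 S := by
  intro B _
  refine ⟨⟨χ, hu.irr⟩, ?_, ?_, fun k hk _ g => hu.rat k hk g, fun b _ x => hu.inv b x⟩
  · intro h3
    have h4 : χ 1 = 1 := congrFun h3 1
    rw [Cfsg.Agent.Blocks.Basic.irr_one_eq_charDegree hu.irr] at h4
    exact hd (by exact_mod_cast h4)
  · exact Nat.odd_iff.2 (Nat.two_dvd_ne_zero.1 hu.odd)

/-- a nontrivial rational valued irreducible character of odd degree fixed by all automorphisms gives `Row2` -/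
theorem row2_of_inv {S : Type*} [Group S] [Finite S] {χ : S → ℂ} (h1 : IsIrrCharacter S χ) {d : ℕ} (hd : Odd d)
    (hd1 : d ≠ 1) (h2 : charDegree χ = d) (h3 : ∀ g, ∃ q : ℚ, χ g = q)
    (h4 : ∀ (τ : MulAut S) (x : S), χ (τ x) = χ x) : Row2 S := by
  have hdeg : χ 1 = d := by
    have h5 := Cfsg.Agent.Blocks.Basic.irr_one_eq_charDegree h1
    rw [h2] at h5
    exact h5
  refine row2_of_odd_index (Γ := ⊤) (by rw [Subgroup.index_top]; decide)
    ⟨χ, h1, ?_, ⟨d, hd, hdeg⟩, h3, fun τ _ x => h4 τ x⟩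
  intro h6
  rw [h6, Pi.one_apply] at hdeg
  exact hd1 (by exact_mod_cast hdeg.symm)

end Cfsg.Agent.H829.R2
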